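import Cfsg.Agent.H3.Core2
import Cfsg.Agent.H3.Mu.O7.Core
import Cfsg.Agent.H3.Mu.O7.L0
import Cfsg.Agent.H3.Mu.O7.L1
import Cfsg.Agent.H3.Mu.O7.P2
import Cfsg.Agent.H3.Mu.O7.P3

/-! The Schur multiplier. -/

set_option autoImplicit false
set_option maxRecDepth 100000

open Cfsg.Agent.L0

namespace Cfsg.Agent.H3.O7


theorem schur {G : Type*} [Group G] (hm : Model G 364 5 T Bf) :
    Finite G ∧ Nat.card G = 4585351680 ∧ HasSchurMultiplier G (Multiplicative (ZMod 6)) := by
  obtain ⟨A, x, h⟩ := core' hm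
  haveI := h.fin
  have h2 := P2.pm h.base h.tab h.card
  have h3 := P3.pm h.base h.tab h.card
  have hr := pmult_rest h.card [] (by simp) (by decide +kernel) (by decide +kernel)
  exact ⟨h.fin, h.card, hasSchur_of (lower_six (lower_two' h.pres L0rep L1rep
    [(12, 10), (6, 11), (6, 13), (-6, 25), (4, 30), (-6, 42), (-3, 45)]
    [(-24, 10), (-12, 11), (-12, 13), (-2, 19), (1, 21), (12, 25), (1, 29), (-9, 30), (-1, 35), (1, 37), (12, 42), (6, 45)]
    (by decide +kernel) (by decide +kernel) (by decide +kernel)))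
    (upper_cyclic (k2 := 1) (k3 := 1) rfl h2 h3 hr)⟩

end Cfsg.Agent.H3.O7
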